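import Cfsg.Agent.KInf.Normal
import Cfsg.Agent.Transfer.Frobenius

/-!
The K-infinity subgroup contains its centralizer; the complement consequence.
-/

set_option autoImplicit false
set_option linter.style.haveILetI false

namespace CfsgLib.KInf

universe u

variable {p : ℕ} [hp : Fact p.Prime] {P : Type u} [Group P] [Finite P]

theorem not_involves_qd_of_isPGroup (hp2 : p ≠ 2) (hP : IsPGroup p P) : ¬ Cfsg.Involves ↥(Cfsg.qd p) P := fun h => by
  obtain ⟨X, f, hf⟩ := ZJ.exists_hom_of_involves h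
  obtain ⟨k, hk⟩ := IsPGroup.iff_card.1 hP
  exact QdFree.not_involves_sl2_of_odd hp2 (hk ▸ (hp.out.odd_of_ne_two hp2).pow)
    (ZJ.involves_of_hom X ((QdRank.blockHom p).comp f) (QdRank.blockHom_surjective.comp hf))

theorem centralizer_kInfLower_le (hp2 : p ≠ 2) (hP : IsPGroup p P) :
    Subgroup.centralizer (Cfsg.kInfLower P : Set P) ≤ Cfsg.kInfLower P := by
  have htop : Cfsg.pCore p P = ⊤ := top_le_iff.1 (PCore.le_pCore inferInstance (hP.to_subgroup ⊤))
  have hc : Subgroup.centralizer (Cfsg.pCore p P : Set P) ≤ Cfsg.pCore p P := by rw [htop]; exact le_top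
  obtain ⟨C, hC⟩ := exists_core hc
  have hCK : C ≤ Cfsg.kInfLower P := by
    have h : C ≤ evenTerm (⊤ : Subgroup P) 0 :=
      le_lowerJoin le_top (lowerCond_core hp2 (not_involves_qd_of_isPGroup hp2 hP) hC _ (hP.to_subgroup _))
    rw [← kSeqEven_eq] at h
    exact h.trans (le_iSup (Cfsg.kSeqEven P) 0)
  exact (Subgroup.centralizer_le hCK).trans (hC.centralizer_le.trans hCK)

/-- If every `p'`-element of `N_G(K)` centralizes `K`, then `N_G(K)` has a normal `p`-complement. -/
theorem hasNormalPComplement_normalizer {G : Type u} [Group G] [Finite G] (S : Sylow p G) (K : Subgroup G)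
    (hSK : (S : Subgroup G) ≤ Subgroup.normalizer (K : Set G))
    (hcK : (S : Subgroup G) ⊓ Subgroup.centralizer (K : Set G) ≤ K)
    (h : ∀ g ∈ Subgroup.normalizer (K : Set G), (orderOf g).Coprime p → g ∈ Subgroup.centralizer (K : Set G)) :
    Cfsg.HasNormalPComplement p ↥(Subgroup.normalizer (K : Set G)) := by
  set N := Subgroup.normalizer (K : Set G) with hN
  set C := (Subgroup.centralizer (K : Set G)).subgroupOf N with hC
  haveI hCn : C.Normal := ⟨fun c hc n => Subgroup.mem_centralizer_iff.2 fun k hk => by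
    have hk' : (n : G)⁻¹ * k * n ∈ K := by
      have := (Subgroup.mem_normalizer_iff.1 (N.inv_mem n.2) k).1 hk
      simpa using this
    have h1 := congrArg (fun t => (n : G) * t * (n : G)⁻¹) (Subgroup.mem_centralizer_iff.1 hc _ hk')
    simpa [mul_assoc] using h1⟩
  let S' : Sylow p N := S.subtype hSK
  have hCc : Cfsg.HasNormalPComplement p C := by
    obtain ⟨T, hT⟩ := Transfer.exists_sylow_map_eq_inf S' C
    refine Transfer.hasNormalPComplement_of_control T fun x hx g _ => ⟨1, one_mem _, ?_⟩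
    have hx' : (x : N) ∈ (S' : Subgroup N) ⊓ C := hT.le ⟨x, hx, rfl⟩
    have hxK : ((x : N) : G) ∈ K := hcK ⟨hx'.1, hx'.2⟩
    have hg : ((g : N) : G) ∈ Subgroup.centralizer (K : Set G) := g.2
    refine Subtype.ext (Subtype.ext ?_)
    show (1 : G) * ((x : N) : G) * (1 : G)⁻¹ = ((g : N) : G) * ((x : N) : G) * ((g : N) : G)⁻¹
    rw [← Subgroup.mem_centralizer_iff.1 hg _ hxK]
    group
  have hle : Cfsg.pResidual p N ≤ C := by
    rw [Cfsg.pResidual, Subgroup.closure_le]
    exact fun g (hg : (orderOf g).Coprime p) => h g g.2 (by rwa [Subgroup.orderOf_coe])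
  rw [Transfer.hasNormalPComplement_iff]
  have h1 := Transfer.hasNormalPComplement_iff.1
    (Transfer.hasNormalPComplement_of_injective (Subgroup.inclusion hle) (Subgroup.inclusion_injective hle) hCc)
  rwa [Transfer.pResidual_pResidual, Subgroup.card_top] at h1

theorem centralizer_inducedFunctor_le (hp2 : p ≠ 2) {G : Type u} [Group G] [Finite G] (S : Sylow p G) :
    (S : Subgroup G) ⊓ Subgroup.centralizer (Cfsg.inducedFunctor Cfsg.kInfLower (S : Subgroup G) : Set G) ≤
      Cfsg.inducedFunctor Cfsg.kInfLower (S : Subgroup G) := fun x hx =>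
  ⟨⟨x, hx.1⟩, centralizer_kInfLower_le hp2 S.isPGroup' (Subgroup.mem_centralizer_iff.2 fun k hk =>
    Subtype.ext (Subgroup.mem_centralizer_iff.1 hx.2 (k : G) ⟨k, hk, rfl⟩)), rfl⟩

theorem le_normalizer_inducedFunctor {W : ∀ (Q : Type u) [Group Q], Subgroup Q}
    (hW : Cfsg.IsCharPFunctor.{u} p W) {G : Type u} [Group G] [Finite G] (S : Sylow p G) :
    (S : Subgroup G) ≤ Subgroup.normalizer (Cfsg.inducedFunctor W (S : Subgroup G) : Set G) := by
  haveI : (W ↥(S : Subgroup G)).Characteristic :=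
    Subgroup.characteristic_iff_map_eq.2 fun φ => hW.2 _ _ S.isPGroup' φ
  refine le_trans ?_ (Subgroup.le_normalizer_map (S : Subgroup G).subtype)
  rw [Subgroup.normalizer_eq_top, ← MonoidHom.range_eq_map, Subgroup.range_subtype]

end CfsgLib.KInf
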