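import Cfsg.Agent.KInf.Normal
import Cfsg.Agent.ConjFunctor.Complement
import Cfsg.Prelude.Def_Amalgam

/-!
The K-infinity dichotomy: either a quadratic element on the centre of `O_p` lies outside it, or the K-infinity
subgroups of a Sylow subgroup are those of `O_p`.
-/

set_option autoImplicit false
set_option linter.style.haveILetI false

namespace CfsgLib.KInf

open scoped commutatorElement

universe u

variable {G : Type u} [Group G]

/-- If every subgroup of `S` quadratic on the abelian `V ≤ Q` lies in `Q`, the limit terms of `S` are those of `Q`. -/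
theorem terms_eq_of_quadratic {S Q V : Subgroup G} (hQS : Q ≤ S) (hVQ : V ≤ Q) (hab : IsMulCommutative V)
    (hVn : S ≤ Subgroup.normalizer (V : Set G)) (hNQ : ∀ B : Subgroup G, B ≤ S → ⁅⁅V, B⁆, B⁆ = ⊥ → B ≤ Q) :
    (⨆ n, evenTerm S n) = ⨆ n, evenTerm Q n ∧ (⨅ n, oddTerm S n) = ⨅ n, oddTerm Q n := by
  obtain ⟨heS, hoS⟩ := le_terms_of_abelian (hVQ.trans hQS) hab hVn
  obtain ⟨heQ, hoQ⟩ := le_terms_of_abelian hVQ hab (hQS.trans hVn)
  have hVV : V ≤ Subgroup.centralizer (V : Set G) := fun a ha => Subgroup.mem_centralizer_iff.2 fun b hb =>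
    congrArg Subtype.val (hab.is_comm.comm ⟨b, hb⟩ ⟨a, ha⟩)
  have hVV' : ⁅V, V⁆ = ⊥ := Subgroup.commutator_eq_bot_iff_le_centralizer.2 hVV
  have hup : ∀ {R B : Subgroup G}, V ≤ R → B ≤ S → UpperCond R B → B ≤ Q := by
    intro R B hVR hBS hB
    refine hNQ B hBS (Subgroup.commutator_eq_bot_iff_le_centralizer.2 ?_)
    rw [Subgroup.commutator_comm]
    exact ((Subgroup.commutator_mono le_rfl hVR).trans hB.2).trans inf_le_right
  have hlow : ∀ {R B : Subgroup G}, V ≤ R → B ≤ S → LowerCond R B → B ≤ Q := by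
    intro R B hVR hBS hB
    refine hNQ B hBS (Subgroup.commutator_eq_bot_iff_le_centralizer.2 ?_)
    rw [Subgroup.commutator_comm]
    refine (hB.2.2 V (by rw [ClassTwo, hVV']; exact bot_le) hVR (hBS.trans hVn)
      (by rw [hVV', Subgroup.commutator_bot_right]) ?_).trans inf_le_right
    rw [Subgroup.commutator_eq_bot_iff_le_centralizer]
    refine le_trans (Subgroup.commutator_le.2 fun z hz v hv => ?_) hVV
    rw [commutatorElement_def]
    exact V.mul_mem ((Subgroup.mem_normalizer_iff.1 (hVn (hBS hz.1)) v).1 hv) (V.inv_mem hv)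
  have heven : ∀ n, oddTerm Q n ≤ oddTerm S n → evenTerm S n ≤ evenTerm Q n := fun n hn =>
    sSup_le fun B hB => le_lowerJoin (hlow (hoQ n) hB.1 (lowerCond_mono hn hB.2)) (lowerCond_mono hn hB.2)
  have ha : ∀ n, oddTerm Q n ≤ oddTerm S n := by
    intro n
    induction n with
    | zero => exact hQS
    | succ n ih =>
      exact sSup_le fun B hB => le_upperJoin (hB.1.trans hQS) (upperCond_mono (heven n ih) hB.2)
  have hodd1 : ∀ n, oddTerm S (n + 1) ≤ Q := fun n =>
    sSup_le fun B hB => hup (heS n) hB.1 hB.2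
  have heven' : ∀ n, oddTerm S (n + 1) ≤ oddTerm Q n → evenTerm Q n ≤ evenTerm S (n + 1) := fun n hn =>
    sSup_le fun B hB => le_lowerJoin (hB.1.trans hQS) (lowerCond_mono hn hB.2)
  have hb : ∀ n, oddTerm S (n + 1) ≤ oddTerm Q n := by
    intro n
    induction n with
    | zero => exact hodd1 0
    | succ n ih =>
      exact sSup_le fun B hB => le_upperJoin (hup (heS (n + 1)) hB.1 hB.2)
        (upperCond_mono (heven' n ih) hB.2)
  refine ⟨le_antisymm (iSup_le fun n => (heven n (ha n)).trans (le_iSup (evenTerm Q) n))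
      (iSup_le fun n => (heven' n (hb n)).trans (le_iSup (evenTerm S) (n + 1))),
    le_antisymm (le_iInf fun n => (iInf_le (oddTerm S) (n + 1)).trans (hb n))
      (le_iInf fun n => (iInf_le (oddTerm Q) n).trans (ha n))⟩

variable {p : ℕ} [Fact p.Prime] [Finite G]

/-- The quadratic witness for a K-infinity subgroup not normal in a subgroup `H`. -/
theorem exists_quadratic_kInf {H T : Subgroup G} (hTH : T ≤ H) (hT : IsPGroup p T) (hidx : ¬ p ∣ T.relIndex H)
    (h : ¬ H ≤ Subgroup.normalizer ((Cfsg.inducedFunctor Cfsg.kInfLower T : Subgroup G) : Set G) ∨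
      ¬ H ≤ Subgroup.normalizer ((Cfsg.inducedFunctor Cfsg.kInfUpper T : Subgroup G) : Set G)) :
    ∃ g : G, g ∈ T ∧ g ∉ Cfsg.pCoreOf p H ∧
      ⁅⁅Cfsg.pCoreOf p H ⊓ Subgroup.centralizer ((Cfsg.pCoreOf p H : Subgroup G) : Set G),
        Subgroup.zpowers g⁆, Subgroup.zpowers g⁆ = ⊥ := by
  by_contra hno
  push Not at hno
  set Q := Cfsg.pCoreOf p H with hQ
  have hHQ : H ≤ Subgroup.normalizer (Q : Set G) := by
    haveI := Cfsg.pCore_normal p ↥H
    intro g hg
    refine Subgroup.mem_normalizer_fintype fun x hx => ?_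
    obtain ⟨k, hk, rfl⟩ := hx
    exact ⟨⟨g, hg⟩ * k * ⟨g, hg⟩⁻¹, (Cfsg.pCore_normal p ↥H).conj_mem k hk _, rfl⟩
  have hQT : Q ≤ T := by
    rintro _ ⟨x, hx, rfl⟩
    exact PCore.pCore_le_sylow ((hT.of_equiv (Subgroup.subgroupOfEquivOfLe hTH).symm).toSylow hidx) hx
  set V := Q ⊓ Subgroup.centralizer (Q : Set G) with hV
  have hab : IsMulCommutative V := ⟨⟨fun a b => Subtype.ext
    (Subgroup.mem_centralizer_iff.1 b.2.2 a a.2.1)⟩⟩
  have hVn : T ≤ Subgroup.normalizer (V : Set G) := fun t ht => Subgroup.mem_normalizer_fintype fun x hx => by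
    refine ⟨(Subgroup.mem_normalizer_iff.1 (hHQ (hTH ht)) x).1 hx.1, Subgroup.mem_centralizer_iff.2 fun y hy => ?_⟩
    have hy' : t⁻¹ * y * t ∈ Q := by
      simpa using (Subgroup.mem_normalizer_iff.1 (inv_mem (hHQ (hTH ht))) y).1 hy
    have := Subgroup.mem_centralizer_iff.1 hx.2 _ hy'
    calc y * (t * x * t⁻¹) = t * ((t⁻¹ * y * t) * x) * t⁻¹ := by group
      _ = t * (x * (t⁻¹ * y * t)) * t⁻¹ := by rw [this]
      _ = t * x * t⁻¹ * y := by group
  obtain ⟨h1, h2⟩ := terms_eq_of_quadratic hQT (inf_le_left : V ≤ Q) hab hVn fun B hBT hB b hb => by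
    by_contra hbQ
    refine hno b (hBT hb) hbQ (le_bot_iff.1 ?_)
    rw [← hB]
    exact Subgroup.commutator_mono (Subgroup.commutator_mono le_rfl (Subgroup.zpowers_le.2 hb))
      (Subgroup.zpowers_le.2 hb)
  have key : ∀ g ∈ H, Q.map (MulAut.conj g).toMonoidHom = Q := fun g hg =>
    Subgroup.mem_normalizer_iff_map_conj_eq.1 (hHQ hg)
  rcases h with h | h <;> refine h fun g hg => Subgroup.mem_normalizer_iff_map_conj_eq.2 ?_
  · rw [inducedFunctor_kInfLower, h1, Subgroup.map_iSup]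
    exact iSup_congr fun n => (evenTerm_map _ (MulAut.conj g).injective Q n).trans (congrArg (evenTerm · n) (key g hg))
  · rw [inducedFunctor_kInfUpper, h2, Subgroup.map_iInf _ (MulAut.conj g).injective]
    exact iInf_congr fun n => (oddTerm_map _ (MulAut.conj g).injective Q n).trans (congrArg (oddTerm · n) (key g hg))

theorem isConjugacyFunctor_induced {W : ∀ (Q : Type u) [Group Q], Subgroup Q}
    (hW : Cfsg.IsCharPFunctor.{u} p W) : Cfsg.IsConjugacyFunctor p (Cfsg.inducedFunctor (G := G) W) :=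
  fun P hP => ⟨Subgroup.map_subtype_le _, fun hne => by
    rw [Cfsg.inducedFunctor, Ne, Subgroup.map_eq_bot_iff_of_injective _ P.subtype_injective]
    exact hW.1 _ hP (P.nontrivial_iff_ne_bot.2 hne), fun g =>
    ConjFunctor.Complement.induced_map hW _ hP fun x _ hx => (MulAut.conj g).injective (hx.trans (map_one _).symm)⟩

theorem center_le_induced_kInf (P : Subgroup G) :
    P ⊓ Subgroup.centralizer (P : Set G) ≤ Cfsg.inducedFunctor Cfsg.kInfLower P ∧
      P ⊓ Subgroup.centralizer (P : Set G) ≤ Cfsg.inducedFunctor Cfsg.kInfUpper P := by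
  have h : ∀ x, ∀ hx : x ∈ P ⊓ Subgroup.centralizer (P : Set G), (⟨x, hx.1⟩ : P) ∈ Subgroup.center P :=
    fun x hx => Subgroup.mem_center_iff.2 fun y => Subtype.ext (Subgroup.mem_centralizer_iff.1 hx.2 y y.2)
  exact ⟨fun x hx => ⟨_, center_le_kInf.1 (h x hx), rfl⟩, fun x hx => ⟨_, center_le_kInf.2 (h x hx), rfl⟩⟩

end CfsgLib.KInf
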